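import Cfsg.Agent.Lib.TC.Data.He2058.Arr

set_option autoImplicit false

namespace Cfsg.Agent.Lib.TC.Data.He2058

open Cfsg.Agent.Lib.TC

theorem P2_ok : allFrom Fp (nat_lit 1372) (nat_lit 686) = true := by decide +kernel

end Cfsg.Agent.Lib.TC.Data.He2058
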