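import Cfsg.Agent.Lib.TC.Data.He2058.Arr
import Cfsg.Agent.Lib.TC.Data.He2058.K0
import Cfsg.Agent.Lib.TC.Data.He2058.K1
import Cfsg.Agent.Lib.TC.Data.He2058.P0
import Cfsg.Agent.Lib.TC.Data.He2058.P1
import Cfsg.Agent.Lib.TC.Data.He2058.P2

set_option autoImplicit false

namespace Cfsg.Agent.Lib.TC.Data.He2058

open Cfsg.Agent.Lib.TC

open Cfsg.Spor Cfsg.Spor.He

theorem doneK : Done Fk 40960 := by
  have h0 := Done.zero Fk
  have h1 : Done Fk 20480 := Done.step h0 K0_ok rfl
  have h2 : Done Fk 40960 := Done.step h1 K1_ok rfl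
  exact h2

theorem doneP : Done Fp 2058 := by
  have h0 := Done.zero Fp
  have h1 : Done Fp 686 := Done.step h0 P0_ok rfl
  have h2 : Done Fp 1372 := Done.step h1 P1_ok rfl
  have h3 : Done Fp 2058 := Done.step h2 P2_ok rfl
  exact h3

def subsL : List (FreeGroup Gen) := [a,c,d,e,f,(a*b)^2,(b*c*d*e)^7]

theorem hsubs (s : FreeGroup Gen) : s ∈ ({a, c, d, e, f, (a * b) ^ 2, (b * c * d * e) ^ 7} : Set (FreeGroup Gen)) ↔ s ∈ subsL := by
  simp [subsL]

theorem hsubW : subW = subsL.map (encW G.He.sys.code G.He.sys.inv) := by decide +kernel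

noncomputable def A : SubWords G.He.sys ({a, c, d, e, f, (a * b) ^ 2, (b * c * d * e) ^ 7} : Set (FreeGroup Gen)) :=
  G.He.sys.subWordsOfList subsL subW hsubW hsubs

theorem hLL : ∀ w ∈ G.He.relWords, w ∈ rR ∨ rotR w ∈ rR ∨ isPseudo 7 G.He.inv w = true := by decide +kernel

theorem hrelW : ∀ w ∈ words.take 32, isPseudo 7 G.He.inv w = true ∨ w ∈ G.He.relWords := by decide +kernel

theorem hsubD : ∀ w ∈ words.drop 32, w ∈ subW := by decide +kernel

theorem hlett : ∀ w ∈ words, ∀ g ∈ w, g < 8 := by decide +kernel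

theorem hwlS : ∀ j, j < 7 → wordAt wordsL j ∈ subW := by decide +kernel

theorem hwlL : ∀ j, j < 14 → ∀ g ∈ wordAt wordsL j, g < 7 := by decide +kernel

theorem hzero : relsOk tT subW 0 = true := by decide +kernel

theorem hnm0 : aN 0 = 0 := by decide +kernel

noncomputable def checked : Sys.Checked G.He.sys ({a, c, d, e, f, (a * b) ^ 2, (b * c * d * e) ^ 7} : Set (FreeGroup Gen)) cert where
  n := 2058
  T := tT
  R := rR
  words := words
  nm := aN
  A := A
  WL := wordAt wordsL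
  nsub := 7
  nW := 14
  par := par
  gw := gw
  ivs := ivs
  hF := doneP
  hn := by decide
  hL := fun r hr => hLL _ (G.He.mem_relWords hr)
  hW := rfl
  hep := rfl
  hsz := rfl
  hnW := by decide +kernel
  hnrel := by decide +kernel
  hletters := hlett
  hrel := fun w hw => (hrelW w hw).imp id G.He.of_mem_relWords
  hsub := hsubD
  hE := fun k hk => guard_zero 40960 _ k hk
  hcheck := doneK
  hnm0 := hnm0
  hWLs := hwlS
  hWLl := hwlL
  h0 := hzero

end Cfsg.Agent.Lib.TC.Data.He2058
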